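import Cfsg.Agent.Lib.LatticeTheta.Poisson

/-!
LatticeTheta: the theta series of an even unimodular lattice of rank 24 without roots is a
modular form of weight 12, which fixes its representation numbers.
-/

set_option autoImplicit false

namespace CfsgLib.LatticeTheta

open Matrix Filter EisensteinSeries ModularForm
open scoped MatrixGroups ModularForm UpperHalfPlane Topology ArithmeticFunction.sigma

variable {n : ℕ} (B : Matrix (Fin n) (Fin n) ℤ)

/-- The real matrix of an integral one. -/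
noncomputable def realMat : Matrix (Fin n) (Fin n) ℝ := B.map fun t : ℤ => (t : ℝ)

/-- The norm of an integral vector. -/
def normInt (x : Fin n → ℤ) : ℤ := x ⬝ᵥ (B *ᵥ x)

theorem qf_rvec (x : Fin n → ℤ) : qf (realMat B) (rvec x) = (normInt B x : ℝ) := by
  simp [qf, normInt, dotProduct, mulVec, realMat, rvec]

/-- The number of vectors of norm `2m`. -/
noncomputable def repNum (m : ℕ) : ℕ := {x : Fin n → ℤ | normInt B x = 2 * (m : ℤ)}.ncard

/-- The theta series as a function of a complex number. -/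
noncomputable def thetaC (τ : ℂ) : ℂ := ∑' x, thetaTerm (realMat B) τ 0 x

/-- The theta series on the upper half plane. -/
noncomputable def thetaFun (τ : ℍ) : ℂ := thetaC B τ

theorem rat_vec_nonneg (h : ∀ x : Fin n → ℤ, x ≠ 0 → 0 < normInt B x) (v : Fin n → ℚ) :
    0 ≤ qf (realMat B) (fun i => (v i : ℝ)) := by
  set N : ℕ := ∏ i, (v i).den with hN
  have hN0 : (0 : ℝ) < N := by
    have : 0 < N := Finset.prod_pos fun i _ => (v i).den_pos
    exact_mod_cast this
  have hdiv : ∀ i, ((v i).den : ℤ) ∣ (N : ℤ) := fun i =>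
    Int.natCast_dvd_natCast.2 (Finset.dvd_prod_of_mem _ (Finset.mem_univ i))
  let x : Fin n → ℤ := fun i => (v i).num * ((N : ℤ) / (v i).den)
  have hx : (fun i => (v i : ℝ)) = (N : ℝ)⁻¹ • rvec x := by
    funext i
    obtain ⟨k, hk⟩ := hdiv i
    have hkR : (N : ℝ) = (v i).den * (k : ℝ) := by exact_mod_cast hk
    have hd : ((v i).den : ℝ) ≠ 0 := by exact_mod_cast (v i).den_nz
    have hk0 : (k : ℝ) ≠ 0 := fun e => hN0.ne' (by rw [hkR, e, mul_zero])
    simp only [Pi.smul_apply, smul_eq_mul, rvec, x, hk,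
      Int.mul_ediv_cancel_left _ (Int.natCast_ne_zero.2 (v i).den_nz)]
    rw [hkR, Rat.cast_def]
    push_cast
    field_simp
  rw [hx, qf_smul, qf_rvec]
  refine mul_nonneg (sq_nonneg _) (Int.cast_nonneg ?_)
  by_cases h0 : x = 0
  · simp [h0, normInt]
  · exact (h x h0).le

theorem isPos_of_int (hsymm : B.IsSymm) (h : ∀ x : Fin n → ℤ, x ≠ 0 → 0 < normInt B x)
    (hdet : B.det ≠ 0) : IsPos (realMat B) := by
  have hnn : ∀ v, 0 ≤ qf (realMat B) v := by
    intro v
    have hd : DenseRange (fun (w : Fin n → ℚ) (i : Fin n) => (w i : ℝ)) :=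
      DenseRange.piMap fun _ => Rat.denseRange_cast
    exact hd.induction_on v (isClosed_le continuous_const (qf_continuous _)) (rat_vec_nonneg B h)
  intro v hv
  refine lt_of_le_of_ne (hnn v) fun e => hv ?_
  have hsR : (realMat B).IsSymm := hsymm.map _
  have hzero : realMat B *ᵥ v = 0 := by
    set u := realMat B *ᵥ v with hu
    by_contra hu0
    have huu : 0 < u ⬝ᵥ u := by
      rcases (dotProduct_self_star_nonneg u).lt_or_eq with hlt | heq
      · simpa using hlt
      · exact absurd (dotProduct_self_eq_zero.1 (by simpa using heq.symm)) hu0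
    have hexp : ∀ r : ℝ, qf (realMat B) (v + r • u) = 2 * r * (u ⬝ᵥ u) + r ^ 2 * qf (realMat B) u := by
      intro r
      have hc : v ⬝ᵥ (realMat B *ᵥ u) = u ⬝ᵥ u := by
        rw [dotProduct_mulVec, ← mulVec_transpose, hsR.eq, ← hu]
      simp only [qf, mulVec_add, mulVec_smul, dotProduct_add, add_dotProduct, smul_dotProduct,
        dotProduct_smul, smul_eq_mul, ← hu, hc]
      rw [qf, ← hu] at e
      rw [← e]
      ring
    set q := qf (realMat B) u
    have hq : 0 ≤ q := hnn u
    have h1 := hexp (-(u ⬝ᵥ u) / (q + 1))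
    have h2 := hnn (v + (-(u ⬝ᵥ u) / (q + 1)) • u)
    rw [h1] at h2
    have h3 : 2 * (-(u ⬝ᵥ u) / (q + 1)) * (u ⬝ᵥ u) + (-(u ⬝ᵥ u) / (q + 1)) ^ 2 * q =
        -(u ⬝ᵥ u) ^ 2 * (q + 2) / (q + 1) ^ 2 := by field_simp; ring
    rw [h3] at h2
    have : -(u ⬝ᵥ u) ^ 2 * (q + 2) / (q + 1) ^ 2 < 0 :=
      div_neg_of_neg_of_pos (by nlinarith) (by positivity)
    linarith
  have hu : IsUnit (realMat B).det := by
    have : (realMat B).det = (B.det : ℝ) := (RingHom.map_det (Int.castRingHom ℝ) B).symm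
    rw [this, isUnit_iff_ne_zero]
    exact_mod_cast hdet
  exact (mulVec_injective_iff_isUnit.2 ((isUnit_iff_isUnit_det _).2 hu)) (by rw [hzero, mulVec_zero])

variable {B} (hpos : IsPos (realMat B)) (heven : ∀ x : Fin n → ℤ, (2 : ℤ) ∣ normInt B x)

include hpos in
theorem finite_norm_le (b : ℤ) : {x : Fin n → ℤ | normInt B x ≤ b}.Finite := by
  have h := (summable_gauss hpos one_pos 0).tendsto_cofinite_zero
  have h' := h.eventually (gt_mem_nhds (Real.exp_pos (-(b : ℝ))))
  rw [eventually_cofinite] at h'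
  refine h'.subset fun x hx => ?_
  simp only [Set.mem_setOf_eq, sub_zero, qf_rvec, not_lt, Real.exp_le_exp]
  simp only [Set.mem_setOf_eq] at hx
  have : (normInt B x : ℝ) ≤ b := by exact_mod_cast hx
  linarith

include hpos in
theorem repNum_zero : repNum B 0 = 1 := by
  rw [repNum, Set.ncard_eq_one]
  refine ⟨0, Set.eq_singleton_iff_unique_mem.2 ⟨by simp [normInt], fun x hx => ?_⟩⟩
  simp only [Set.mem_setOf_eq, Nat.cast_zero, mul_zero] at hx
  by_contra h0
  have := hpos (rvec x) fun e => h0 (funext fun i => by simpa [rvec] using congrFun e i)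
  rw [qf_rvec, hx] at this
  simp at this

include hpos in
theorem normInt_nonneg (x : Fin n → ℤ) : 0 ≤ normInt B x := by
  by_cases h : rvec x = 0
  · have h0 : x = 0 := funext fun i => by simpa [rvec] using congrFun h i
    simp [h0, normInt]
  · have := hpos _ h
    rw [qf_rvec] at this
    exact (Int.cast_pos.1 this).le

include hpos heven in
theorem hasSum_q (τ : ℍ) :
    HasSum (fun m : ℕ => (repNum B m : ℂ) • Function.Periodic.qParam 1 (τ : ℂ) ^ m) (thetaFun B τ) := by
  let half : (Fin n → ℤ) → ℕ := fun x => (normInt B x / 2).toNat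
  have hhalf : ∀ x m, half x = m ↔ normInt B x = 2 * (m : ℤ) := fun x m => by
    have h0 := normInt_nonneg hpos x
    obtain ⟨k, hk⟩ := heven x
    simp only [half]
    omega
  have hterm : ∀ x, thetaTerm (realMat B) τ 0 x =
      Function.Periodic.qParam 1 (τ : ℂ) ^ half x := fun x => by
    rw [thetaTerm, qf_rvec, (hhalf x (half x)).1 rfl, Function.Periodic.qParam, ← Complex.exp_nat_mul]
    congr 1
    simp only [dotProduct_zero]
    push_cast
    ring
  have hs := (summable_thetaTerm hpos τ.im_pos 0).hasSum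
  have hs' := (Equiv.sigmaFiberEquiv half).hasSum_iff.2 hs
  refine hs'.sigma fun m => ?_
  haveI : Fintype {x // half x = m} :=
    ((finite_norm_le hpos (2 * (m : ℤ))).subset fun x (hx : half x = m) => ((hhalf x m).1 hx).le).fintype
  have hc : repNum B m = Fintype.card {x // half x = m} := by
    rw [repNum, ← Nat.card_coe_set_eq, ← Nat.card_eq_fintype_card]
    exact Nat.card_congr (Equiv.subtypeEquivRight fun x => (hhalf x m).symm)
  have hterm' : ∀ x : {x // half x = m}, thetaTerm (realMat B) τ 0 x.1 =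
      Function.Periodic.qParam 1 (τ : ℂ) ^ m := fun x => by rw [hterm, x.2]
  have hf := hasSum_fintype fun x : {x // half x = m} => thetaTerm (realMat B) τ 0 x.1
  rw [Finset.sum_congr rfl fun x _ => hterm' x, Finset.sum_const, Finset.card_univ, ← hc,
    nsmul_eq_mul, ← smul_eq_mul] at hf
  exact hf

include hpos in
theorem differentiableOn_thetaC : DifferentiableOn ℂ (thetaC B) {τ : ℂ | 0 < τ.im} := by
  intro τ hτ
  simp only [Set.mem_setOf_eq] at hτ
  set δ := τ.im / 2 with hδ
  have hU : IsOpen {w : ℂ | δ < w.im} := isOpen_lt continuous_const Complex.continuous_im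
  have h := Complex.differentiableOn_tsum_of_summable_norm
    (F := fun x w => thetaTerm (realMat B) w 0 x)
    (summable_gauss hpos (mul_pos Real.pi_pos (half_pos hτ)) 0)
    (fun x => by unfold thetaTerm; fun_prop) hU fun x w (hw : δ < w.im) => by
      rw [norm_thetaTerm, Real.exp_le_exp, sub_zero, neg_mul, neg_mul, neg_le_neg_iff]
      refine mul_le_mul_of_nonneg_right (mul_le_mul_of_nonneg_left hw.le Real.pi_pos.le) ?_
      rw [qf_rvec]; exact Int.cast_nonneg (normInt_nonneg hpos x)
  exact (h.differentiableAt (hU.mem_nhds (show δ < τ.im by rw [hδ]; linarith))).differentiableWithinAt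

include heven in
theorem thetaC_add_one (τ : ℂ) : thetaC B (τ + 1) = thetaC B τ := by
  refine tsum_congr fun x => ?_
  obtain ⟨k, hk⟩ := heven x
  rw [thetaTerm, thetaTerm, qf_rvec, hk,
    show (Real.pi : ℂ) * Complex.I * (τ + 1) * ((((2 * k : ℤ) : ℤ) : ℝ) : ℂ) +
        2 * Real.pi * Complex.I * ((rvec x ⬝ᵥ (0 : Fin n → ℝ) : ℝ) : ℂ) =
      (Real.pi * Complex.I * τ * ((((2 * k : ℤ) : ℤ) : ℝ) : ℂ) +
        2 * Real.pi * Complex.I * ((rvec x ⬝ᵥ (0 : Fin n → ℝ) : ℝ) : ℂ)) +
        (k : ℂ) * (2 * Real.pi * Complex.I) by push_cast; ring, Complex.exp_periodic.int_mul k]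

include hpos in
theorem thetaC_inv (hn : n = 24) (hsymm : B.IsSymm) (hdet : B.det = 1) {τ : ℂ} (hτ : 0 < τ.im) :
    thetaC B (-τ)⁻¹ = τ ^ 12 * thetaC B τ := by
  subst hn
  have hτ0 : τ ≠ 0 := by rintro rfl; simp at hτ
  have hu : IsUnit B.det := by rw [hdet]; exact isUnit_one
  have hAM : realMat B * realMat B⁻¹ = 1 := by
    show B.map (Int.castRingHom ℝ) * B⁻¹.map (Int.castRingHom ℝ) = 1
    rw [← Matrix.map_mul, mul_nonsing_inv _ hu, Matrix.map_one _ (map_zero _) (map_one _)]
  have h := theta_transform hτ (realMat B) (realMat B⁻¹) (hsymm.map _) hpos hAM 0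
  have hfac : factor (realMat B) τ = 1 / τ ^ 12 := by
    have hd : (realMat B).det = 1 := by
      rw [show (realMat B).det = (B.det : ℝ) from (RingHom.map_det (Int.castRingHom ℝ) B).symm, hdet]
      simp
    rw [factor, hd, Real.sqrt_one, Complex.ofReal_one, mul_one,
      show (24 : ℕ) = 2 * 12 from rfl, pow_mul, ← Complex.cpow_nat_mul]
    norm_num [mul_pow, Complex.I_pow_four]
    rw [show (12 : ℕ) = 4 * 3 from rfl, pow_mul, pow_mul, Complex.I_pow_four]
    simp
  let e : (Fin 24 → ℤ) ≃ (Fin 24 → ℤ) :=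
    { toFun := fun x => B *ᵥ x
      invFun := fun y => B⁻¹ *ᵥ y
      left_inv := fun x => by simp [mulVec_mulVec, nonsing_inv_mul _ hu]
      right_inv := fun y => by simp [mulVec_mulVec, mul_nonsing_inv _ hu] }
  have hdual : ∀ x, dualTerm (realMat B⁻¹) τ 0 (e x) = thetaTerm (realMat B) (-τ)⁻¹ 0 x := by
    intro x
    have hq : normInt B⁻¹ (e x) = normInt B x := by
      show (B *ᵥ x) ⬝ᵥ (B⁻¹ *ᵥ (B *ᵥ x)) = x ⬝ᵥ (B *ᵥ x)
      rw [mulVec_mulVec, nonsing_inv_mul _ hu, one_mulVec, dotProduct_comm]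
    rw [dualTerm, thetaTerm, sub_zero, qf_rvec, qf_rvec, hq]
    congr 1
    simp only [dotProduct_zero]
    push_cast
    field_simp
    ring
  rw [← e.tsum_eq (dualTerm (realMat B⁻¹) τ 0), tsum_congr hdual, hfac] at h
  show thetaC B (-τ)⁻¹ = τ ^ 12 * ∑' x, thetaTerm (realMat B) τ 0 x
  rw [h, thetaC]
  field_simp

include hpos heven in
/-- The theta series as a modular form of weight twelve. -/
theorem exists_modular (hn : n = 24) (hsymm : B.IsSymm) (hdet : B.det = 1) :
    ∃ f : ModularForm 𝒮ℒ 12, ∀ m, (UpperHalfPlane.qExpansion 1 f).coeff m = repNum B m := by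
  have hS : thetaFun B ∣[(12 : ℤ)] ModularGroup.S = thetaFun B := by
    funext τ
    have hτ0 : (τ : ℂ) ≠ 0 := τ.ne_zero
    rw [SL_slash_apply, UpperHalfPlane.modular_S_smul, ModularGroup.denom_S]
    show thetaC B (-(τ : ℂ))⁻¹ * _ = _
    rw [thetaC_inv hpos hn hsymm hdet τ.im_pos, _root_.zpow_neg, thetaFun]
    norm_cast
    field_simp
  have hT : thetaFun B ∣[(12 : ℤ)] ModularGroup.T = thetaFun B := by
    funext τ
    rw [SL_slash_apply, UpperHalfPlane.modular_T_smul, ModularGroup.denom_apply]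
    show thetaC B (((1 : ℝ) +ᵥ τ : ℍ) : ℂ) * _ = _
    rw [UpperHalfPlane.coe_vadd, Complex.ofReal_one, add_comm, thetaC_add_one heven, thetaFun]
    simp [ModularGroup.coe_T]
  let f : ModularForm 𝒮ℒ 12 :=
    { toFun := thetaFun B
      slash_action_eq' := fun A hA => by
        obtain ⟨A, rfl⟩ := hA
        exact SlashInvariantForm.slash_action_generators_SL2Z hS hT A
      holo' := by
        rw [UpperHalfPlane.mdifferentiable_iff]
        refine (differentiableOn_thetaC hpos).congr fun z hz => ?_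
        simp [thetaFun, UpperHalfPlane.ofComplex_apply_of_im_pos hz]
      bdd_at_cusps' := fun hc => by
        rw [Subgroup.IsArithmetic.isCusp_iff_isCusp_SL2Z] at hc
        rw [OnePoint.isBoundedAt_iff_forall_SL2Z hc]
        intro γ _
        rw [SlashInvariantForm.slash_action_generators_SL2Z hS hT]
        exact UpperHalfPlane.isBoundedAtImInfty_of_hasSum_qExpansion one_pos (hasSum_q hpos heven) }
  exact ⟨f, fun m => (ModularFormClass.qExpansion_coeff_unique one_pos one_mem_strictPeriods_SL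
    (f := f) (hasSum_q hpos heven) m).symm⟩

theorem weight_twelve (f : ModularForm 𝒮ℒ 12) (h0 : (UpperHalfPlane.qExpansion 1 f).coeff 0 = 1)
    (h1 : (UpperHalfPlane.qExpansion 1 f).coeff 1 = 0) :
    (UpperHalfPlane.qExpansion 1 f).coeff 2 = 196560 ∧
      (UpperHalfPlane.qExpansion 1 f).coeff 3 = 16773120 ∧
      (UpperHalfPlane.qExpansion 1 f).coeff 4 = 398034000 := by
  let g : ModularForm 𝒮ℒ 12 := (12 : ℂ) • f - ((7 : ℂ) • ModularForm.mcast (by decide) (E₄.pow 3) +
    (5 : ℂ) • ModularForm.mcast (by decide) (E₆.pow 2))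
  have hp := one_mem_strictPeriods_SL
  have hg : UpperHalfPlane.qExpansion 1 g = (12 : ℂ) • UpperHalfPlane.qExpansion 1 f -
      ((7 : ℂ) • UpperHalfPlane.qExpansion 1 E₄ ^ 3 + (5 : ℂ) • UpperHalfPlane.qExpansion 1 E₆ ^ 2) := by
    simp only [g]
    rw [FunLike.coe_sub, ModularForm.qExpansion_sub one_pos hp, FunLike.coe_add,
      ModularForm.qExpansion_add one_pos hp, FunLike.coe_smul, FunLike.coe_smul, FunLike.coe_smul,
      ModularForm.qExpansion_smul one_pos hp, ModularForm.qExpansion_smul one_pos hp,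
      ModularForm.qExpansion_smul one_pos hp, ModularForm.qExpansion_mcast,
      ModularForm.qExpansion_mcast, ModularForm.qExpansion_pow one_pos hp,
      ModularForm.qExpansion_pow one_pos hp]
  have b4 : bernoulli 4 = -1 / 30 := by decide +kernel
  have b6 : bernoulli 6 = 1 / 42 := by decide +kernel
  have e4 : ∀ m, (UpperHalfPlane.qExpansion 1 E₄).coeff m = if m = 0 then 1 else 240 * (σ 3 m : ℂ) := by
    intro m
    rw [E_qExpansion_coeff _ ⟨2, rfl⟩]
    split_ifs
    · rfl
    · norm_num [b4]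
  have e6 : ∀ m, (UpperHalfPlane.qExpansion 1 E₆).coeff m = if m = 0 then 1 else -504 * (σ 5 m : ℂ) := by
    intro m
    rw [E_qExpansion_coeff _ ⟨3, rfl⟩]
    split_ifs
    · rfl
    · norm_num [b6]
  have s31 : σ 3 1 = 1 := by decide
  have s32 : σ 3 2 = 9 := by decide
  have s33 : σ 3 3 = 28 := by decide
  have s34 : σ 3 4 = 73 := by decide
  have s51 : σ 5 1 = 1 := by decide
  have s52 : σ 5 2 = 33 := by decide
  have s53 : σ 5 3 = 244 := by decide
  have s54 : σ 5 4 = 1057 := by decide
  have hcoeff : ∀ m, (UpperHalfPlane.qExpansion 1 g).coeff m =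
      12 * (UpperHalfPlane.qExpansion 1 f).coeff m -
        (7 * (UpperHalfPlane.qExpansion 1 E₄ * UpperHalfPlane.qExpansion 1 E₄ *
            UpperHalfPlane.qExpansion 1 E₄).coeff m +
          5 * (UpperHalfPlane.qExpansion 1 E₆ * UpperHalfPlane.qExpansion 1 E₆).coeff m) := fun m => by
    rw [hg, map_sub, map_add, PowerSeries.coeff_smul, PowerSeries.coeff_smul, PowerSeries.coeff_smul,
      pow_succ, pow_two, pow_two]
    simp only [smul_eq_mul]
  have hz : g = 0 := by
    refine sturm_bound_levelOne (lt_of_lt_of_le ?_ (PowerSeries.nat_le_order _ 2 fun i hi => ?_))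
    · show (((12 : ℤ).toNat / 12 : ℕ) : ℕ∞) < ((2 : ℕ) : ℕ∞)
      exact_mod_cast (by decide : (12 : ℤ).toNat / 12 < 2)
    · rw [hcoeff]
      interval_cases i
      · simp [PowerSeries.coeff_mul, Finset.Nat.antidiagonal_succ, h0, e4, e6,
          -PowerSeries.coeff_zero_eq_constantCoeff]
        norm_num
      · simp [PowerSeries.coeff_mul, Finset.Nat.antidiagonal_succ, h1, e4, e6, s31, s51,
          -PowerSeries.coeff_zero_eq_constantCoeff]
        norm_num
  have hm : ∀ m, 0 = 12 * (UpperHalfPlane.qExpansion 1 f).coeff m -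
        (7 * (UpperHalfPlane.qExpansion 1 E₄ * UpperHalfPlane.qExpansion 1 E₄ *
            UpperHalfPlane.qExpansion 1 E₄).coeff m +
          5 * (UpperHalfPlane.qExpansion 1 E₆ * UpperHalfPlane.qExpansion 1 E₆).coeff m) := fun m => by
    rw [← hcoeff, hz]
    simp [UpperHalfPlane.qExpansion_zero]
  refine ⟨?_, ?_, ?_⟩
  · have := hm 2
    simp [PowerSeries.coeff_mul, Finset.Nat.antidiagonal_succ, e4, e6, s31, s32, s51, s52,
      -PowerSeries.coeff_zero_eq_constantCoeff] at this
    linear_combination (-1 / 12 : ℂ) * this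
  · have := hm 3
    simp [PowerSeries.coeff_mul, Finset.Nat.antidiagonal_succ, e4, e6, s31, s32, s33, s51, s52, s53,
      -PowerSeries.coeff_zero_eq_constantCoeff] at this
    linear_combination (-1 / 12 : ℂ) * this
  · have := hm 4
    simp [PowerSeries.coeff_mul, Finset.Nat.antidiagonal_succ, e4, e6, s31, s32, s33, s34, s51, s52,
      s53, s54, -PowerSeries.coeff_zero_eq_constantCoeff] at this
    linear_combination (-1 / 12 : ℂ) * this

end CfsgLib.LatticeTheta
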