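import Mathlib

/-!
LatticeTheta: the transformation formula of the theta series of a positive definite real
quadratic form, by iterating the one-variable functional equation of Jacobi's theta function.
-/

set_option autoImplicit false

namespace CfsgLib.LatticeTheta

open Matrix Finset

variable {n : ℕ}

/-- The value of the quadratic form of a matrix. -/
def qf (A : Matrix (Fin n) (Fin n) ℝ) (v : Fin n → ℝ) : ℝ := v ⬝ᵥ (A *ᵥ v)

/-- An integral vector as a real one. -/
def rvec (x : Fin n → ℤ) : Fin n → ℝ := fun i => (x i : ℝ)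

/-- Positive definiteness. -/
def IsPos (A : Matrix (Fin n) (Fin n) ℝ) : Prop := ∀ v : Fin n → ℝ, v ≠ 0 → 0 < qf A v

theorem qf_smul (A : Matrix (Fin n) (Fin n) ℝ) (r : ℝ) (v : Fin n → ℝ) :
    qf A (r • v) = r ^ 2 * qf A v := by
  simp [qf, mulVec_smul]; ring

theorem qf_continuous (A : Matrix (Fin n) (Fin n) ℝ) : Continuous (qf A) := by
  unfold qf dotProduct mulVec dotProduct
  fun_prop

theorem IsPos.exists_bound {A : Matrix (Fin n) (Fin n) ℝ} (hA : IsPos A) :
    ∃ ε > 0, ∀ v, ε * ∑ i, v i ^ 2 ≤ qf A v := by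
  rcases Nat.eq_zero_or_pos n with rfl | hn
  · exact ⟨1, one_pos, fun v => by simp [qf]⟩
  haveI : Nonempty (Fin n) := ⟨⟨0, hn⟩⟩
  obtain ⟨u, hu, hmin⟩ := (isCompact_sphere (0 : Fin n → ℝ) 1).exists_isMinOn
    (NormedSpace.sphere_nonempty.2 zero_le_one) (qf_continuous A).continuousOn
  have hu0 : u ≠ 0 := by rintro rfl; simp at hu
  refine ⟨qf A u / n, div_pos (hA u hu0) (by exact_mod_cast hn), fun v => ?_⟩
  by_cases hv : v = 0
  · subst hv; simp [qf]
  have hnv : 0 < ‖v‖ := norm_pos_iff.2 hv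
  have h1 : qf A u ≤ qf A (‖v‖⁻¹ • v) := hmin (show ‖v‖⁻¹ • v ∈ Metric.sphere (0 : Fin n → ℝ) 1 by
    simp [norm_smul, hnv.ne'])
  rw [qf_smul, inv_pow, inv_mul_eq_div, le_div_iff₀ (by positivity)] at h1
  have h2 : ∑ i, v i ^ 2 ≤ n * ‖v‖ ^ 2 :=
    calc ∑ i, v i ^ 2 ≤ ∑ _i : Fin n, ‖v‖ ^ 2 := Finset.sum_le_sum fun i _ => by
          have := norm_le_pi_norm v i
          rw [Real.norm_eq_abs] at this
          rw [← sq_abs]
          exact pow_le_pow_left₀ (abs_nonneg _) this 2
      _ = n * ‖v‖ ^ 2 := by simp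
  calc qf A u / n * ∑ i, v i ^ 2 ≤ qf A u / n * (n * ‖v‖ ^ 2) :=
        mul_le_mul_of_nonneg_left h2 (div_nonneg (hA u hu0).le (Nat.cast_nonneg n))
    _ = qf A u * ‖v‖ ^ 2 := by field_simp
    _ ≤ qf A v := h1

theorem summable_prod {f : Fin n → ℤ → ℝ} (h0 : ∀ i t, 0 ≤ f i t) (hs : ∀ i, Summable (f i)) :
    Summable fun x : Fin n → ℤ => ∏ i, f i (x i) := by
  induction n with
  | zero => exact .of_finite
  | succ n ih =>
    have := (hs 0).mul_of_nonneg (ih (f := fun i => f i.succ) (fun i => h0 _) fun i => hs _)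
      (h0 0) (fun x => Finset.prod_nonneg fun i _ => h0 _ _)
    refine ((Fin.consEquiv fun _ => ℤ).summable_iff).1 (this.congr fun p => ?_)
    simp [Fin.prod_univ_succ]

theorem summable_gauss_one {c : ℝ} (hc : 0 < c) (s : ℝ) :
    Summable fun t : ℤ => Real.exp (-c * ((t : ℝ) - s) ^ 2) := by
  have hpi : (Real.pi : ℝ) ≠ 0 := Real.pi_ne_zero
  have hτ : 0 < (((c / Real.pi : ℝ) : ℂ) * Complex.I).im := by
    simp only [Complex.mul_I_im, Complex.ofReal_re]; positivity
  have h := ((summable_jacobiTheta₂_term_iff (((-(c * s / Real.pi) : ℝ) : ℂ) * Complex.I) _).2 hτ).norm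
  refine (h.mul_left (Real.exp (-c * s ^ 2))).congr fun t => ?_
  rw [norm_jacobiTheta₂_term, ← Real.exp_add]
  simp only [Complex.mul_I_im, Complex.ofReal_re]
  congr 1
  field_simp
  ring

theorem summable_gauss {A : Matrix (Fin n) (Fin n) ℝ} (hA : IsPos A) {c : ℝ} (hc : 0 < c)
    (z : Fin n → ℝ) : Summable fun x : Fin n → ℤ => Real.exp (-c * qf A (rvec x - z)) := by
  obtain ⟨ε, hε, hb⟩ := hA.exists_bound
  refine Summable.of_nonneg_of_le (fun x => (Real.exp_pos _).le) (fun x => ?_)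
    (summable_prod (f := fun i t => Real.exp (-(c * ε) * ((t : ℝ) - z i) ^ 2))
      (fun i t => (Real.exp_pos _).le) fun i => summable_gauss_one (mul_pos hc hε) _)
  rw [← Real.exp_sum, Real.exp_le_exp, ← Finset.mul_sum]
  have := mul_le_mul_of_nonneg_left (hb (rvec x - z)) hc.le
  simp only [Pi.sub_apply, rvec] at this ⊢
  linarith

/-- A term of the theta series. -/
noncomputable def thetaTerm (A : Matrix (Fin n) (Fin n) ℝ) (τ : ℂ) (z : Fin n → ℝ)
    (x : Fin n → ℤ) : ℂ :=
  Complex.exp (Real.pi * Complex.I * τ * qf A (rvec x) +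
    2 * Real.pi * Complex.I * ((rvec x ⬝ᵥ z : ℝ) : ℂ))

/-- A term of the transformed series. -/
noncomputable def dualTerm (M : Matrix (Fin n) (Fin n) ℝ) (τ : ℂ) (z : Fin n → ℝ)
    (y : Fin n → ℤ) : ℂ :=
  Complex.exp (-Real.pi * Complex.I / τ * qf M (rvec y - z))

theorem norm_thetaTerm (A : Matrix (Fin n) (Fin n) ℝ) (τ : ℂ) (z : Fin n → ℝ) (x : Fin n → ℤ) :
    ‖thetaTerm A τ z x‖ = Real.exp (-(Real.pi * τ.im) * qf A (rvec x)) := by
  rw [thetaTerm, Complex.norm_exp]
  congr 1
  simp [Complex.mul_re, Complex.mul_im]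

theorem norm_dualTerm (M : Matrix (Fin n) (Fin n) ℝ) (τ : ℂ) (z : Fin n → ℝ) (y : Fin n → ℤ) :
    ‖dualTerm M τ z y‖ =
      Real.exp (-(Real.pi * (τ.im / Complex.normSq τ)) * qf M (rvec y - z)) := by
  rw [dualTerm, Complex.norm_exp]
  congr 1
  simp [Complex.div_re, Complex.mul_re, Complex.mul_im, Complex.div_im]
  ring

theorem summable_thetaTerm {A : Matrix (Fin n) (Fin n) ℝ} (hA : IsPos A) {τ : ℂ} (hτ : 0 < τ.im)
    (z : Fin n → ℝ) : Summable (thetaTerm A τ z) := by
  refine .of_norm ?_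
  simp only [norm_thetaTerm]
  simpa using summable_gauss hA (mul_pos Real.pi_pos hτ) 0

theorem summable_dualTerm {M : Matrix (Fin n) (Fin n) ℝ} (hM : IsPos M) {τ : ℂ} (hτ : 0 < τ.im)
    (z : Fin n → ℝ) : Summable (dualTerm M τ z) := by
  refine .of_norm ?_
  simp only [norm_dualTerm]
  refine summable_gauss hM (mul_pos Real.pi_pos (div_pos hτ (Complex.normSq_pos.2 ?_))) z
  rintro rfl; simp at hτ

theorem IsPos.inv {A M : Matrix (Fin n) (Fin n) ℝ} (hA : IsPos A) (hAM : A * M = 1) : IsPos M := by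
  intro u hu
  have hv : A *ᵥ (M *ᵥ u) = u := by rw [mulVec_mulVec, hAM, one_mulVec]
  have := hA (M *ᵥ u) fun e => hu (by rw [← hv, e, mulVec_zero])
  rwa [qf, hv, dotProduct_comm] at this

theorem sqrt_mul_real {a : ℝ} (ha : 0 < a) {w : ℂ} (hw : w ≠ 0) :
    ((a : ℂ) * w) ^ (1 / 2 : ℂ) = (Real.sqrt a : ℂ) * w ^ (1 / 2 : ℂ) := by
  rw [Complex.cpow_def_of_ne_zero (mul_ne_zero (Complex.ofReal_ne_zero.2 ha.ne') hw),
    Complex.cpow_def_of_ne_zero hw, Complex.log_ofReal_mul ha hw, add_mul, Complex.exp_add,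
    Real.sqrt_eq_rpow, Real.rpow_def_of_pos ha]
  push_cast
  rfl

/-- The Schur complement of the first entry. -/
noncomputable def schur (A : Matrix (Fin (n + 1)) (Fin (n + 1)) ℝ) : Matrix (Fin n) (Fin n) ℝ :=
  Matrix.of fun i j => A i.succ j.succ - A i.succ 0 * A 0 j.succ / A 0 0

section Blocks

variable (A : Matrix (Fin (n + 1)) (Fin (n + 1)) ℝ)

theorem schur_mulVec (v : Fin n → ℝ) (i : Fin n) :
    (schur A *ᵥ v) i = (∑ j, A i.succ j.succ * v j) - A i.succ 0 * (∑ j, A 0 j.succ * v j) / A 0 0 := by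
  simp only [schur, mulVec, dotProduct, of_apply, sub_mul, Finset.sum_sub_distrib, Finset.mul_sum,
    Finset.sum_div]
  congr 1
  exact Finset.sum_congr rfl fun j _ => by ring

theorem qf_cons (hA : A.IsSymm) (ha : A 0 0 ≠ 0) (t : ℝ) (v : Fin n → ℝ) :
    qf A (Fin.cons t v) =
      A 0 0 * (t + (∑ j, A 0 j.succ * v j) / A 0 0) ^ 2 + qf (schur A) v := by
  have hb : ∀ i : Fin n, A i.succ 0 = A 0 i.succ := fun i => hA.apply _ _
  simp only [qf, mulVec, dotProduct, Fin.sum_univ_succ, Fin.cons_zero, Fin.cons_succ, schur,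
    of_apply, mul_add, Finset.sum_add_distrib]
  simp only [hb, sub_mul, Finset.sum_sub_distrib, mul_sub]
  have e1 : ∑ i, v i * (A 0 i.succ * t) = t * ∑ j, A 0 j.succ * v j := by
    rw [Finset.mul_sum]; exact Finset.sum_congr rfl fun i _ => by ring
  have e2 : ∑ i, v i * ∑ j, A 0 i.succ * A 0 j.succ / A 0 0 * v j =
      (∑ j, A 0 j.succ * v j) * (∑ j, A 0 j.succ * v j) / A 0 0 := by
    rw [Finset.sum_mul, Finset.sum_div]
    refine Finset.sum_congr rfl fun i _ => ?_
    rw [Finset.mul_sum, Finset.mul_sum, Finset.sum_div]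
    exact Finset.sum_congr rfl fun j _ => by ring
  rw [e1, e2]
  field_simp
  ring

variable {A}

theorem IsPos.head (hA : IsPos A) : 0 < A 0 0 := by
  simpa [qf] using hA (Pi.single 0 1) (by simp)

theorem IsPos.schur (hA : IsPos A) (hs : A.IsSymm) : IsPos (schur A) := by
  intro v hv
  have h := hA (Fin.cons (-(∑ j, A 0 j.succ * v j) / A 0 0) v) fun e => hv (funext fun i => by
    simpa using congrFun e i.succ)
  rw [qf_cons A hs hA.head.ne', neg_div, neg_add_cancel] at h
  simpa using h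

theorem schur_isSymm (hs : A.IsSymm) : (schur A).IsSymm := by
  ext i j
  simp only [schur, transpose_apply, of_apply, hs.apply i.succ j.succ, hs.apply (0 : Fin (n+1)) i.succ,
    hs.apply (0 : Fin (n+1)) j.succ]
  ring

variable {M : Matrix (Fin (n + 1)) (Fin (n + 1)) ℝ} (hAM : A * M = 1)

include hAM in
theorem schur_inv (ha : A 0 0 ≠ 0) : schur A * M.submatrix Fin.succ Fin.succ = 1 := by
  ext i j
  have h0 := congrFun (congrFun hAM 0) j.succ
  have h1 := congrFun (congrFun hAM i.succ) j.succ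
  simp only [mul_apply, Fin.sum_univ_succ, one_apply, Fin.succ_inj,
    (Fin.succ_ne_zero j).symm, if_false] at h0 h1
  simp only [mul_apply, schur, of_apply, submatrix_apply, sub_mul, Finset.sum_sub_distrib, one_apply]
  have e : ∑ x : Fin n, A i.succ 0 * A 0 x.succ / A 0 0 * M x.succ j.succ =
      A i.succ 0 * (∑ x : Fin n, A 0 x.succ * M x.succ j.succ) / A 0 0 := by
    rw [Finset.mul_sum, Finset.sum_div]
    exact Finset.sum_congr rfl fun x _ => by ring
  rw [e, ← h1, eq_neg_of_add_eq_zero_right h0]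
  field_simp
  ring

include hAM in
theorem qf_inv_cons (hs : A.IsSymm) (ha : A 0 0 ≠ 0) (t : ℝ) (v : Fin n → ℝ) :
    qf M (Fin.cons t v) = t ^ 2 / A 0 0 +
      qf (M.submatrix Fin.succ Fin.succ) fun i => v i - t * A 0 i.succ / A 0 0 := by
  set w := M *ᵥ Fin.cons t v with hw
  have hu : A *ᵥ w = Fin.cons t v := by rw [hw, mulVec_mulVec, hAM, one_mulVec]
  set w' : Fin n → ℝ := fun i => w i.succ with hw'
  have hwc : w = Fin.cons (w 0) w' := (Fin.cons_self_tail w).symm
  have ht : A 0 0 * w 0 + ∑ j, A 0 j.succ * w' j = t := by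
    simpa [mulVec, dotProduct, Fin.sum_univ_succ] using congrFun hu 0
  have hv : (fun i => v i - t * A 0 i.succ / A 0 0) = schur A *ᵥ w' := by
    funext i
    have hi : A i.succ 0 * w 0 + ∑ j, A i.succ j.succ * w' j = v i := by
      simpa [mulVec, dotProduct, Fin.sum_univ_succ] using congrFun hu i.succ
    rw [schur_mulVec, ← hi, ← ht, hs.apply (0 : Fin (n+1)) i.succ]
    field_simp
    ring
  have hM' : M.submatrix Fin.succ Fin.succ *ᵥ (schur A *ᵥ w') = w' := by
    rw [mulVec_mulVec, mul_eq_one_comm.1 (schur_inv hAM ha), one_mulVec]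
  have h1 : qf M (Fin.cons t v) = qf A w := by
    rw [qf, qf, hu, ← hw, dotProduct_comm]
  rw [h1, hwc, qf_cons A hs ha, hv]
  simp only [qf, hM', dotProduct_comm (schur A *ᵥ w')]
  rw [← ht]
  field_simp

theorem det_schur (ha : A 0 0 ≠ 0) : A.det = A 0 0 * (schur A).det := by
  set B : Matrix (Fin (n + 1)) (Fin (n + 1)) ℝ :=
    Matrix.of fun i j => if i = 0 then A i j else A i j - A i 0 / A 0 0 * A 0 j with hB
  have h1 : A.det = B.det :=
    det_eq_of_forall_row_eq_smul_add_const (fun i => if i = 0 then 0 else A i 0 / A 0 0) 0 (by simp)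
      fun i j => by
        by_cases hi : i = 0
        · simp [hB, hi]
        · simp [hB, hi]
  rw [h1, det_succ_column_zero, Fin.sum_univ_succ]
  simp only [hB, of_apply, Fin.succ_ne_zero, if_false, if_true, div_mul_cancel₀ _ ha, sub_self,
    mul_zero, zero_mul, Finset.sum_const_zero, add_zero, Fin.succAbove_zero, Fin.val_zero, pow_zero,
    one_mul]
  congr 2
  ext i j
  simp [schur]
  ring

end Blocks

theorem rvec_cons (t : ℤ) (x : Fin n → ℤ) : rvec (Fin.cons t x) = Fin.cons (t : ℝ) (rvec x) := by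
  funext i; refine Fin.cases ?_ ?_ i <;> simp [rvec]

/-- The normalising factor. -/
noncomputable def factor (A : Matrix (Fin n) (Fin n) ℝ) (τ : ℂ) : ℂ :=
  1 / (((-Complex.I * τ) ^ (1 / 2 : ℂ)) ^ n * (Real.sqrt A.det : ℂ))

/-- **Transformation formula of the theta series.** -/
theorem theta_transform {τ : ℂ} (hτ : 0 < τ.im) : ∀ {n : ℕ} (A M : Matrix (Fin n) (Fin n) ℝ),
    A.IsSymm → IsPos A → A * M = 1 → ∀ z : Fin n → ℝ,
    ∑' x, thetaTerm A τ z x = factor A τ * ∑' y, dualTerm M τ z y := by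
  intro n
  induction n with
  | zero =>
    intro A M _ _ _ z
    simp [tsum_fintype, thetaTerm, dualTerm, factor, qf]
  | succ n ih =>
    intro A M hs hA hAM z
    have hτ0 : τ ≠ 0 := by rintro rfl; simp at hτ
    have ha := hA.head
    have haC : (A 0 0 : ℂ) ≠ 0 := Complex.ofReal_ne_zero.2 ha.ne'
    set S := schur A with hS
    set M' := M.submatrix Fin.succ Fin.succ with hM'
    have hSpos : IsPos S := hA.schur hs
    let z' : ℤ → Fin n → ℝ := fun s i => z i.succ + ((s : ℝ) - z 0) * A 0 i.succ / A 0 0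
    let e : ℤ → ℂ := fun s => Complex.exp (-Real.pi * Complex.I / τ *
      ((((s : ℝ) - z 0) ^ 2 / A 0 0 : ℝ) : ℂ))
    let σ : ℂ := (A 0 0 : ℂ) * τ
    let L : (Fin n → ℤ) → ℝ := fun x => ∑ j, A 0 j.succ * rvec x j
    let c₁ : ℂ := 1 / (-Complex.I * σ) ^ (1 / 2 : ℂ)
    have hσ : 0 < σ.im := by
      show 0 < ((A 0 0 : ℂ) * τ).im
      rw [Complex.im_ofReal_mul]; positivity
    -- the inner sum
    have hinner : ∀ x : Fin n → ℤ, ∑' t : ℤ, thetaTerm A τ z (Fin.cons t x) =
        c₁ * ∑' s : ℤ, e s * thetaTerm S τ (z' s) x := by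
      intro x
      set w : ℂ := τ * (L x : ℂ) + (z 0 : ℂ) with hw
      set r : ℂ := Complex.exp (Real.pi * Complex.I * τ * (((L x) ^ 2 / A 0 0 : ℝ) : ℂ) +
        Real.pi * Complex.I * τ * qf S (rvec x) +
        2 * Real.pi * Complex.I * ((∑ i, rvec x i * z i.succ : ℝ) : ℂ)) with hr
      have h1 : ∀ t : ℤ, thetaTerm A τ z (Fin.cons t x) = r * jacobiTheta₂_term t w σ := by
        intro t
        rw [thetaTerm, rvec_cons, qf_cons A hs ha.ne', hr, jacobiTheta₂_term, ← Complex.exp_add]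
        congr 1
        simp only [dotProduct, Fin.sum_univ_succ, Fin.cons_zero, Fin.cons_succ, hw, σ, L]
        push_cast
        field_simp
        ring
      have h2 : ∀ s : ℤ, r * (c₁ * Complex.exp (-Real.pi * Complex.I * w ^ 2 / σ) *
          jacobiTheta₂_term s (w / σ) (-1 / σ)) = c₁ * (e s * thetaTerm S τ (z' s) x) := by
        intro s
        have hsum : (rvec x ⬝ᵥ z' s : ℝ) = (∑ i, rvec x i * z i.succ) + ((s : ℝ) - z 0) * L x / A 0 0 := by
          simp only [dotProduct, z', L, mul_add, Finset.sum_add_distrib, Finset.mul_sum, Finset.sum_div]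
          congr 1
          exact Finset.sum_congr rfl fun i _ => by ring
        have hexp : r * Complex.exp (-Real.pi * Complex.I * w ^ 2 / σ) *
            jacobiTheta₂_term s (w / σ) (-1 / σ) = e s * thetaTerm S τ (z' s) x := by
          rw [hr, jacobiTheta₂_term, thetaTerm, ← Complex.exp_add, ← Complex.exp_add,
            ← Complex.exp_add, hsum]
          congr 1
          simp only [hw, σ]
          push_cast
          field_simp
          ring
        rw [← hexp]
        ring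
      rw [tsum_congr h1, tsum_mul_left]
      show r * jacobiTheta₂ w σ = _
      rw [jacobiTheta₂_functional_equation w σ, jacobiTheta₂, ← tsum_mul_left, ← tsum_mul_left,
        ← tsum_mul_left]
      exact tsum_congr h2
    have hes : Summable fun s => ‖e s‖ := by
      refine (summable_gauss_one (c := Real.pi * (τ.im / Complex.normSq τ) / A 0 0) ?_ (z 0)).congr
        fun s => ?_
      · have := Complex.normSq_pos.2 hτ0
        positivity
      rw [Complex.norm_exp]
      congr 1
      simp [Complex.div_re, Complex.mul_re, Complex.mul_im, Complex.div_im, ← Complex.ofReal_pow]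
      field_simp
    have hsum2 : Summable (Function.uncurry fun (x : Fin n → ℤ) (s : ℤ) =>
        e s * thetaTerm S τ (z' s) x) := by
      refine .of_norm ?_
      refine ((summable_gauss hSpos (mul_pos Real.pi_pos hτ) 0).mul_of_nonneg hes
        (fun x => (Real.exp_pos _).le) fun s => norm_nonneg _).congr fun p => ?_
      simp only [Function.uncurry_def, norm_mul, norm_thetaTerm, sub_zero]
      ring
    have hfinal : ∀ s : ℤ, ∀ y : Fin n → ℤ,
        e s * dualTerm M' τ (z' s) y = dualTerm M τ z (Fin.cons s y) := by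
      intro s y
      rw [dualTerm, dualTerm, rvec_cons, ← Complex.exp_add, ← mul_add, ← Complex.ofReal_add]
      congr 3
      have hc : Fin.cons (s : ℝ) (rvec y) - z =
          Fin.cons ((s : ℝ) - z 0) (fun i => rvec y i - z i.succ) := by
        funext i; refine Fin.cases ?_ ?_ i <;> simp
      rw [hc, qf_inv_cons hAM hs ha.ne']
      congr 2
      funext i
      simp [z']
      ring
    have hc1 : c₁ * factor S τ = factor A τ := by
      have hw0 : -Complex.I * τ ≠ 0 := mul_ne_zero (neg_ne_zero.2 Complex.I_ne_zero) hτ0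
      simp only [c₁, σ, factor]
      rw [show -Complex.I * ((A 0 0 : ℂ) * τ) = (A 0 0 : ℂ) * (-Complex.I * τ) by ring,
        sqrt_mul_real ha hw0, det_schur ha.ne', Real.sqrt_mul ha.le, ← hS, pow_succ]
      push_cast
      field_simp
    have hsA := summable_thetaTerm hA hτ z
    have hsA' := (Fin.consEquiv fun _ : Fin (n + 1) => ℤ).summable_iff.2 hsA
    have hsM := summable_dualTerm (hA.inv hAM) hτ z
    have hsM' := (Fin.consEquiv fun _ : Fin (n + 1) => ℤ).summable_iff.2 hsM
    calc ∑' x, thetaTerm A τ z x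
        = ∑' p : ℤ × (Fin n → ℤ), thetaTerm A τ z (Fin.cons p.1 p.2) :=
          ((Fin.consEquiv fun _ : Fin (n + 1) => ℤ).tsum_eq _).symm
      _ = ∑' t : ℤ, ∑' x, thetaTerm A τ z (Fin.cons t x) := hsA'.tsum_prod
      _ = ∑' x, ∑' t : ℤ, thetaTerm A τ z (Fin.cons t x) :=
          (Summable.tsum_comm (f := fun (t : ℤ) x => thetaTerm A τ z (Fin.cons t x)) hsA').symm
      _ = c₁ * ∑' x, ∑' s : ℤ, e s * thetaTerm S τ (z' s) x := by
          rw [tsum_congr hinner, tsum_mul_left]
      _ = c₁ * ∑' s : ℤ, ∑' x, e s * thetaTerm S τ (z' s) x := by rw [hsum2.tsum_comm]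
      _ = c₁ * ∑' s : ℤ, factor S τ * ∑' y, dualTerm M τ z (Fin.cons s y) := by
          congr 1
          refine tsum_congr fun s => ?_
          rw [tsum_mul_left, ih S M' (schur_isSymm hs) hSpos (schur_inv hAM ha.ne') (z' s),
            mul_left_comm, ← tsum_mul_left]
          simp only [hfinal]
      _ = factor A τ * ∑' y, dualTerm M τ z y := by
          rw [tsum_mul_left, ← mul_assoc, hc1]
          congr 1
          exact hsM'.tsum_prod.symm.trans ((Fin.consEquiv fun _ : Fin (n + 1) => ℤ).tsum_eq _)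

end CfsgLib.LatticeTheta
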